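import Mathlib
import Cfsg.Agent.Lib.Invol.Counting
import Cfsg.Agent.Lib.Solv.Cores

/-!
A group is bounded by its Sylow `2`-order and the centralisers of the involutions of a four-group.
-/

set_option autoImplicit false
set_option maxHeartbeats 400000
set_option linter.style.haveILetI false

namespace Cfsg.Lib.Invol

open Subgroup
open scoped Classical

variable {G : Type*} [Group G]

/-- Some nontrivial element has a class of size at most `2c²`, `c` the centraliser of an involution. -/
theorem exists_small_class [Finite G] {t : G} (ht : orderOf t = 2) :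
    ∃ x : G, x ≠ 1 ∧ (centralizer ({x} : Set G)).index ≤ 2 * Nat.card (centralizer ({t} : Set G)) ^ 2 := by
  haveI := Fintype.ofFinite G
  set c := Nat.card (centralizer ({t} : Set G))
  have hc : 0 < c := Nat.card_pos
  set g := Nat.card G
  set I := Nat.card (Invs G)
  have hI : g ≤ I * c := by
    rw [show g = _ from (conjClass_ncard_mul t).symm]
    exact Nat.mul_le_mul_right _ (Nat.card_le_card_of_injective
      (fun s => (⟨s.1, orderTwo_isConj ht s.2⟩ : Invs G)) fun a b h => Subtype.ext (by simpa using h))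
  by_contra hh
  push Not at hh
  have hsmall : ∀ x : G, x ≠ 1 →
      (2 * c ^ 2 + 1) * Nat.card {u : G // orderOf u = 2 ∧ orderOf (u * x) = 2} ≤ g := by
    intro x hx
    refine le_trans (Nat.mul_le_mul_left _ ((card_pair_le_inverters x).trans (card_inverters_le x))) ?_
    show _ ≤ Nat.card G
    rw [← (centralizer ({x} : Set G)).card_mul_index,
      mul_comm (Nat.card ↥(centralizer ({x} : Set G)))]
    exact Nat.mul_le_mul_right _ (hh x hx)
  have hsum : (2 * c ^ 2 + 1) * ∑ x ∈ Finset.univ.erase (1 : G),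
      Nat.card {u : G // orderOf u = 2 ∧ orderOf (u * x) = 2} ≤ g * g := by
    rw [Finset.mul_sum]
    refine (Finset.sum_le_card_nsmul _ _ _ fun x hx => hsmall x (Finset.mem_erase.mp hx).1).trans ?_
    rw [smul_eq_mul]
    refine Nat.mul_le_mul_right _ ?_
    rw [Finset.card_erase_of_mem (Finset.mem_univ _), Finset.card_univ, ← Nat.card_eq_fintype_card]
    exact Nat.sub_le _ _
  have hp : (2 * c ^ 2 + 1) * (I * I) ≤ (2 * c ^ 2 + 1) * I + g * g :=
    (Nat.mul_le_mul_left _ pairs_le).trans (by rw [Nat.mul_add]; exact Nat.add_le_add_left hsum _)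
  have hg2 : 2 * c ^ 2 + 1 ≤ g := by
    refine (Nat.succ_le_of_lt (hh t (by rintro rfl; simp at ht))).trans ?_
    exact Nat.le_of_dvd Nat.card_pos (index_dvd_card _)
  have h1 : g * g ≤ I * I * c ^ 2 := by
    calc g * g ≤ (I * c) * (I * c) := Nat.mul_le_mul hI hI
      _ = _ := by ring
  have h2 : 2 * c ≤ I := by
    by_contra h
    push Not at h
    nlinarith
  nlinarith

theorem exists_proper_subgroup_of_inner [Finite G] (hZ : center G = ⊥) (hnt : Nontrivial G) {m : G}
    (hm : m * m = 1) {n : ℕ} (hn : Nat.card (centralizer ({m} : Set G)) ≤ n) :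
    ∃ H : Subgroup G, H ≠ ⊤ ∧ H.index ≤ 2 * n ^ 2 := by
  by_cases h1 : m = 1
  · subst h1
    refine ⟨⊥, bot_ne_top, ?_⟩
    have : centralizer ({(1 : G)} : Set G) = ⊤ := eq_top_iff.mpr fun g _ =>
      mem_centralizer_singleton_iff.mpr (by simp)
    rw [this, card_top] at hn
    rw [index_bot]
    nlinarith
  · obtain ⟨x, hx, hle⟩ := exists_small_class (orderOf_eq_prime (by rw [sq, hm]) h1)
    refine ⟨_, fun h => hx ?_, hle.trans (by gcongr)⟩
    rw [← mem_bot, ← hZ, mem_center_iff]
    exact fun g => mem_centralizer_singleton_iff.mp (h ▸ mem_top g)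

/-- A centreless normal subgroup has a proper subgroup of index bounded by an involution centraliser. -/
theorem exists_proper_subgroup_normal [Finite G] {M : Subgroup G} [M.Normal] (hM : M ≠ ⊥)
    (hZ : center M = ⊥) {t : G} (ht : orderOf t = 2) {n : ℕ}
    (hn : Nat.card (centralizer ({t} : Set G)) ≤ n) :
    ∃ H : Subgroup M, H ≠ ⊤ ∧ H.index ≤ 2 * n ^ 2 := by
  haveI : Nontrivial M := (nontrivial_iff_ne_bot M).mpr hM
  have inner : ∀ m : M, m * m = 1 → Nat.card (centralizer ({m} : Set M)) ≤ n →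
      ∃ H : Subgroup M, H ≠ ⊤ ∧ H.index ≤ 2 * n ^ 2 := fun m hm h =>
    exists_proper_subgroup_of_inner hZ inferInstance hm h
  have htt : t * t = 1 := mul_self_of_orderTwo ht
  by_cases htM : t ∈ M
  · refine inner ⟨t, htM⟩ (Subtype.ext htt) (le_trans ?_ hn)
    refine Nat.card_le_card_of_injective (fun g => ⟨(g : M).1, ?_⟩) fun a b h =>
      Subtype.ext (Subtype.ext (congrArg Subtype.val h :))
    rw [mem_centralizer_singleton_iff]
    exact congrArg Subtype.val (mem_centralizer_singleton_iff.mp g.2)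
  set X := M ⊔ zpowers t with hX
  have htX : t ∈ X := mem_sup_right (mem_zpowers t)
  have hcard : Nat.card (centralizer ({(⟨t, htX⟩ : X)} : Set X)) ≤ n := by
    refine le_trans (Nat.card_le_card_of_injective
      (fun g : centralizer ({(⟨t, htX⟩ : X)} : Set X) =>
        (⟨(g : X).1, ?_⟩ : centralizer ({t} : Set G))) fun a b h =>
      Subtype.ext (Subtype.ext (congrArg Subtype.val h :))) hn
    rw [mem_centralizer_singleton_iff]
    exact congrArg Subtype.val (mem_centralizer_singleton_iff.mp g.2)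
  obtain ⟨x, hx, hle⟩ := exists_small_class (G := X) (t := ⟨t, htX⟩)
    (by rw [← orderOf_coe]; exact ht)
  have hle' : (centralizer ({x} : Set X)).index ≤ 2 * n ^ 2 := hle.trans (by gcongr)
  set C := (centralizer ({(x : G)} : Set G)).subgroupOf M with hC
  by_cases hCtop : C = ⊤
  · -- `x` centralises `M`, so `t` induces an inner automorphism
    have hcent : ∀ k ∈ M, k * (x : G) = x * k := fun k hk =>
      mem_centralizer_singleton_iff.mp (show (⟨k, hk⟩ : M) ∈ C from hCtop ▸ mem_top _)
    have hxM : (x : G) ∉ M := fun h => hx (by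
      have : (⟨(x : G), h⟩ : M) ∈ center M := mem_center_iff.mpr fun g =>
        Subtype.ext (hcent g g.2)
      rw [hZ, mem_bot] at this
      exact Subtype.ext (congrArg Subtype.val this :))
    obtain ⟨m, hm, z, hz, hmz⟩ := mem_sup_of_normal_left.mp x.2
    obtain ⟨k, rfl⟩ := mem_zpowers_iff.mp hz
    obtain ⟨k', hk⟩ | ⟨k', hk⟩ := Int.even_or_odd k
    · exfalso
      apply hxM
      rw [← hmz, hk, ← two_mul, zpow_mul, zpow_two, htt, one_zpow, mul_one]
      exact hm
    have hx' : (x : G) = m * t := by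
      rw [← hmz, hk, zpow_add, zpow_mul, zpow_two, htt, one_zpow, one_mul, zpow_one]
    have e : t = m⁻¹ * x := by rw [hx', inv_mul_cancel_left]
    have hmi : m⁻¹ ∈ M := inv_mem hm
    have hxc : m⁻¹ * (x : G) = x * m⁻¹ := hcent _ hmi
    have hxx : (x : G) * x = m * m := by
      calc (x : G) * x = m * (m⁻¹ * x * x) := by group
        _ = m * ((m⁻¹ * x) * (m⁻¹ * x)) * m := by
            rw [mul_assoc m (m⁻¹ * (x : G) * (m⁻¹ * x)) m]
            congr 1
            calc m⁻¹ * (x : G) * x = m⁻¹ * x * (m⁻¹ * m) * x := by group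
              _ = m⁻¹ * x * m⁻¹ * (m * x) := by group
              _ = m⁻¹ * x * m⁻¹ * (x * m) := by rw [hcent m hm]
              _ = _ := by group
        _ = m * (t * t) * m := by rw [← e]
        _ = m * m := by rw [htt, mul_one]
    have hxx1 : (⟨m * m, mul_mem hm hm⟩ : M) = 1 := by
      rw [← mem_bot, ← hZ, mem_center_iff]
      intro g
      refine Subtype.ext ?_
      show (g : G) * (m * m) = m * m * g
      rw [← hxx, ← mul_assoc, hcent g g.2, mul_assoc, hcent g g.2, mul_assoc]
    refine inner ⟨m⁻¹, hmi⟩ ?_ (le_trans ?_ hn)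
    · refine Subtype.ext ?_
      show m⁻¹ * m⁻¹ = 1
      rw [← mul_inv_rev, show m * m = 1 from congrArg Subtype.val hxx1, inv_one]
    · refine Nat.card_le_card_of_injective (fun g => ⟨(g : M).1, ?_⟩) fun a b h =>
        Subtype.ext (Subtype.ext (congrArg Subtype.val h :))
      rw [mem_centralizer_singleton_iff]
      have hg : ((g : M) : G) * m⁻¹ = m⁻¹ * (g : M) :=
        congrArg Subtype.val (mem_centralizer_singleton_iff.mp g.2)
      rw [e, ← mul_assoc, hg, mul_assoc, hcent _ (g : M).2, mul_assoc]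
  · refine ⟨C, hCtop, le_trans ?_ hle'⟩
    have h1 : C = ((centralizer ({x} : Set X)).comap (inclusion (le_sup_left : M ≤ X))) := by
      ext k
      simp only [hC, mem_subgroupOf, mem_comap, mem_centralizer_singleton_iff]
      exact ⟨fun h => Subtype.ext h, fun h => congrArg Subtype.val h⟩
    rw [h1, index_comap]
    exact (relIndex_le_of_le_right le_top (by rw [relIndex_top_right]; exact index_ne_zero_of_finite)).trans
      (relIndex_top_right _).le

/-- Minimal normal subgroups of even order are bounded. -/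
theorem bound_minimal_normal [Finite G] {M : Subgroup G} (hMn : M.Normal) (hM : M ≠ ⊥)
    (hmin : ∀ K : Subgroup G, K.Normal → K ≤ M → K = ⊥ ∨ K = M) (heven : Even (Nat.card M))
    {a : ℕ} (ha : (Nat.card M).factorization 2 ≤ a) {t : G} (ht : orderOf t = 2) {n : ℕ}
    (hn : Nat.card (centralizer ({t} : Set G)) ≤ n) :
    Nat.card M ≤ Nat.factorial (2 * n ^ 2) ^ a + 2 ^ a := by
  by_cases hZ : center M = ⊥
  · refine le_trans ?_ (Nat.le_add_right _ _)
    obtain ⟨H, hH, hidx⟩ := exists_proper_subgroup_normal hM hZ ht hn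
    -- bound the index of some maximal normal subgroup
    obtain ⟨N, ⟨hNn, hNt, hHN⟩, hNmax⟩ := (Set.toFinite
      {N : Subgroup M | N.Normal ∧ N ≠ ⊤ ∧ H.normalCore ≤ N}).exists_maximalFor id _
      ⟨H.normalCore, normalCore_normal H, fun h => hH (top_le_iff.mp (h ▸ normalCore_le H)), le_rfl⟩
    haveI := hNn
    have hmaxN : ∀ K : Subgroup M, K.Normal → N ≤ K → K = N ∨ K = ⊤ := fun K hK hle => by
      by_cases hKt : K = ⊤
      · exact Or.inr hKt
      · exact Or.inl (le_antisymm (hNmax ⟨hK, hKt, hHN.trans hle⟩ hle) hle)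
    have hbound : N.index ≤ Nat.factorial (2 * n ^ 2) := by
      refine le_trans (Nat.le_of_dvd (Nat.pos_of_ne_zero index_ne_zero_of_finite)
        (index_dvd_of_le hHN)) (le_trans ?_ (Nat.factorial_le hidx))
      rw [normalCore_eq_ker, index_ker, index_eq_card, ← Nat.card_perm]
      exact Nat.card_le_card_of_injective _ Subtype.val_injective
    set conjN : G → Subgroup M := fun g => N.map ((MulAut.conjNormal g).toMonoidHom) with hconjN
    have hconj_normal : ∀ g, (conjN g).Normal := fun g =>
      Subgroup.Normal.map hNn _ (MulAut.conjNormal g).surjective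
    have hconj_index : ∀ g, (conjN g).index = N.index := fun g =>
      index_map_equiv N (MulAut.conjNormal g)
    have hconj_max : ∀ g (K : Subgroup M), K.Normal → conjN g ≤ K → K = conjN g ∨ K = ⊤ := by
      intro g K hK hle
      have hle' : N ≤ K.comap (MulAut.conjNormal g).toMonoidHom := map_le_iff_le_comap.mp hle
      rcases hmaxN _ (hK.comap _) hle' with h | h
      · left
        rw [hconjN]
        simp only [← h]
        exact (map_comap_eq_self_of_surjective (MulAut.conjNormal g).surjective K).symm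
      · right
        rw [← map_comap_eq_self_of_surjective (f := (MulAut.conjNormal g).toMonoidHom)
          (MulAut.conjNormal g).surjective K, h]
        exact map_top_of_surjective _ (MulAut.conjNormal g).surjective
    have key : ∀ s : Set G, s.Finite → ∃ (K : Subgroup M) (j : ℕ), K.Normal ∧
        (∀ g ∈ s, K ≤ conjN g) ∧ (∀ m : M, (∀ g ∈ s, m ∈ conjN g) → m ∈ K) ∧
        Nat.card M = N.index ^ j * Nat.card K := by
      intro s hs
      induction s, hs using Set.Finite.induction_on with
      | empty => exact ⟨⊤, 0, inferInstance, by simp, fun m _ => mem_top m, by simp⟩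
      | @insert g s _ _ ih =>
        obtain ⟨K, j, hK, hle, hmem, hcard⟩ := ih
        haveI := hconj_normal g
        haveI := hK
        by_cases hKg : K ≤ conjN g
        · refine ⟨K, j, hK, ?_, fun m hm => hmem m fun g' hg' => hm g' (Set.mem_insert_of_mem _ hg'),
            hcard⟩
          intro g' hg'
          rcases Set.mem_insert_iff.mp hg' with rfl | hg'
          exacts [hKg, hle g' hg']
        · have htop : K ⊔ conjN g = ⊤ := (hconj_max g _ inferInstance le_sup_right).resolve_left
            fun h => hKg (le_sup_left.trans h.le)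
          refine ⟨K ⊓ conjN g, j + 1, inferInstance, ?_, ?_, ?_⟩
          · intro g' hg'
            rcases Set.mem_insert_iff.mp hg' with rfl | hg'
            exacts [inf_le_right, inf_le_left.trans (hle g' hg')]
          · exact fun m hm => ⟨hmem m fun g' hg' => hm g' (Set.mem_insert_of_mem _ hg'),
              hm g (Set.mem_insert _ _)⟩
          · have h1 : (conjN g).relIndex K = N.index := by
              rw [← relIndex_sup_right, htop, relIndex_top_right, hconj_index]
            have h2 := relIndex_mul_relIndex ⊥ (K ⊓ conjN g) K bot_le inf_le_left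
            rw [relIndex_bot_left, relIndex_bot_left, inf_comm, inf_relIndex_right, h1] at h2
            rw [hcard, ← h2, inf_comm]
            ring
    obtain ⟨K, j, -, hle, hmem, hcard⟩ := key Set.univ Set.finite_univ
    have hKmap : (K.map M.subtype).Normal := ⟨fun z hz g => by
      obtain ⟨m, hm, rfl⟩ := hz
      refine ⟨MulAut.conjNormal g m, hmem _ fun g' _ => ?_, by simp [MulAut.conjNormal_apply]⟩
      obtain ⟨w, hw, hw'⟩ := hle (g⁻¹ * g') (Set.mem_univ _) hm
      refine ⟨w, hw, ?_⟩
      rw [← hw']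
      show MulAut.conjNormal g' w = MulAut.conjNormal g (MulAut.conjNormal (g⁻¹ * g') w)
      rw [← MulAut.mul_apply, ← map_mul, mul_inv_cancel_left]⟩
    have hK : K = ⊥ := by
      rcases hmin _ hKmap (map_subtype_le K) with h | h
      · exact (map_eq_bot_iff_of_injective _ M.subtype_injective).mp h
      · exfalso
        have hKt : K = ⊤ := top_le_iff.mp fun m _ => by
          obtain ⟨m', hm', he⟩ := (h.symm.le m.2 : (m : G) ∈ K.map M.subtype)
          rwa [M.subtype_injective he] at hm'
        have h1 : conjN 1 = ⊤ := top_le_iff.mp (hKt ▸ hle 1 (Set.mem_univ _))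
        have := hconj_index 1
        rw [h1, index_top] at this
        exact hNt (index_eq_one.mp this.symm)
    rw [hK, card_bot, mul_one] at hcard
    rw [hcard]
    by_cases hj : j = 0
    · simp [hj, Nat.one_le_iff_ne_zero, Nat.factorial_ne_zero]
    have h2 : 2 ∣ N.index := Nat.prime_two.dvd_of_dvd_pow (hcard ▸ even_iff_two_dvd.mp heven)
    have hja : j ≤ a := by
      refine le_trans ?_ ha
      rw [← Nat.prime_two.pow_dvd_iff_le_factorization Nat.card_pos.ne', hcard]
      exact pow_dvd_pow_of_dvd h2 j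
    exact (Nat.pow_le_pow_left hbound j).trans
      (Nat.pow_le_pow_right (Nat.factorial_pos _) hja)
  · refine le_trans ?_ (Nat.le_add_left _ _)
    have hcomm : center M = ⊤ := by
      have hn' : ((center M).map M.subtype).Normal := by
        haveI := hMn
        exact ConjAct.normal_of_characteristic_of_normal
      rcases hmin _ hn' (map_subtype_le _) with h | h
      · exact absurd ((map_eq_bot_iff_of_injective _ M.subtype_injective).mp h) hZ
      · refine top_le_iff.mp fun m _ => ?_
        obtain ⟨m', hm', he⟩ := (h.symm.le m.2 : (m : G) ∈ (center M).map M.subtype)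
        rwa [M.subtype_injective he] at hm'
    obtain ⟨S⟩ : Nonempty (Sylow 2 M) := inferInstance
    have hSn : (S : Subgroup M).Normal := ⟨fun s hs g => by
      rw [mem_center_iff.mp (hcomm ▸ mem_top s) g, mul_inv_cancel_right]
      exact hs⟩
    haveI : (S : Subgroup M).Characteristic := S.characteristic_of_normal hSn
    haveI := hMn
    have hS1 : (S : Subgroup M) ≠ ⊥ := fun h => by
      have h2 := S.card_eq_multiplicity
      rw [h, card_bot] at h2
      rcases Nat.pow_eq_one.mp h2.symm with h3 | h3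
      · exact absurd h3 (by norm_num)
      · exact (Nat.prime_two.factorization_pos_of_dvd Nat.card_pos.ne'
          (even_iff_two_dvd.mp heven)).ne' h3
    rcases hmin _ (ConjAct.normal_of_characteristic_of_normal) (map_subtype_le (S : Subgroup M)) with h | h
    · exact absurd ((map_eq_bot_iff_of_injective _ M.subtype_injective).mp h) hS1
    · rw [← h, card_subtype, S.card_eq_multiplicity]
      exact Nat.pow_le_pow_right two_pos ha

/-! ### The odd core -/

/-- A subgroup of odd order normalised by a four-group is bounded by the three centralisers. -/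
theorem card_odd_le [Finite G] {R : Subgroup G} [R.Normal] (hodd : Odd (Nat.card R)) {t u : G}
    (ht : t * t = 1) (hu : u * u = 1) (htu : t * u = u * t) :
    Nat.card R ≤ Nat.card (centralizer ({t} : Set G)) *
      (Nat.card (centralizer ({u} : Set G)) * Nat.card (centralizer ({t * u} : Set G))) := by
  have hn : ∀ g, g ∈ R → ∀ s : G, s * g * s⁻¹ ∈ R := fun g hg s => ‹R.Normal›.conj_mem g hg s
  -- square roots inside `R`
  obtain ⟨k, hk⟩ : ∃ k : ℕ, ∀ r ∈ R, (r ^ k) * (r ^ k) = r := by
    obtain ⟨m, hm⟩ := hodd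
    refine ⟨m + 1, fun r hr => ?_⟩
    have h : r ^ Nat.card R = 1 :=
      congrArg Subtype.val (pow_card_eq_one' (x := (⟨r, hr⟩ : R)))
    rw [← pow_add, show m + 1 + (m + 1) = Nat.card R + 1 by omega, pow_succ, h, one_mul]
  have huniq : ∀ a ∈ R, ∀ b ∈ R, a * a = b * b → a = b := by
    intro a ha b hb h
    have e : ∀ a ∈ R, (a * a) ^ k = a := fun a ha => by
      rw [← pow_two, ← pow_mul, two_mul, pow_add]
      exact hk a ha
    rw [← e a ha, ← e b hb, h]
  have key : ∀ s : G, s * s = 1 → ∀ g : G, s * (s * g * s⁻¹) * s⁻¹ = g := fun s hs g => by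
    have hi : s⁻¹ = s := (eq_inv_of_mul_eq_one_left hs).symm
    rw [hi]
    calc s * (s * g * s) * s = (s * s) * g * (s * s) := by group
      _ = g := by rw [hs, one_mul, mul_one]
  -- decomposition along an involution
  have decomp : ∀ s : G, s * s = 1 → ∀ r ∈ R, ∃ c j : G, r = c * j ∧ c ∈ R ∧ j ∈ R ∧
      s * c * s⁻¹ = c ∧ s * j * s⁻¹ = j⁻¹ := by
    intro s hs r hr
    set r' := (s * r * s⁻¹)⁻¹ * r
    have hr' : r' ∈ R := mul_mem (inv_mem (hn r hr s)) hr
    set j := r' ^ k
    have hj : j ∈ R := pow_mem hr' k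
    have hjj : j * j = r' := hk r' hr'
    have hsj : s * j * s⁻¹ = j⁻¹ := by
      refine huniq _ (hn j hj s) _ (inv_mem hj) ?_
      calc (s * j * s⁻¹) * (s * j * s⁻¹) = s * (j * j) * s⁻¹ := by group
        _ = (s * (s * r * s⁻¹) * s⁻¹)⁻¹ * (s * r * s⁻¹) := by rw [hjj]; simp [r', mul_assoc]
        _ = r⁻¹ * (s * r * s⁻¹) := by rw [key s hs]
        _ = r'⁻¹ := by simp only [r']; group
        _ = j⁻¹ * j⁻¹ := by rw [← hjj, mul_inv_rev]
    refine ⟨r * j⁻¹, j, by group, mul_mem hr (inv_mem hj), hj, ?_, hsj⟩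
    calc s * (r * j⁻¹) * s⁻¹ = (s * r * s⁻¹) * (s * j * s⁻¹)⁻¹ := by group
      _ = (s * r * s⁻¹) * j := by rw [hsj, inv_inv]
      _ = (s * r * s⁻¹) * (j * j) * j⁻¹ := by group
      _ = (s * r * s⁻¹) * r' * j⁻¹ := by rw [hjj]
      _ = r * j⁻¹ := by simp only [r']; group
  have uniqD : ∀ s : G, ∀ c j c' j' : G, c ∈ R → j ∈ R → c' ∈ R → j' ∈ R →
      s * c * s⁻¹ = c → s * j * s⁻¹ = j⁻¹ → s * c' * s⁻¹ = c' → s * j' * s⁻¹ = j'⁻¹ →
      c * j = c' * j' → c = c' ∧ j = j' := by
    intro s c j c' j' _ hj _ hj' hc1 hj1 hc1' hj1' h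
    have h1 : c * j⁻¹ = c' * j'⁻¹ := by
      calc c * j⁻¹ = (s * c * s⁻¹) * (s * j * s⁻¹) := by rw [hc1, hj1]
        _ = s * (c * j) * s⁻¹ := by group
        _ = (s * c' * s⁻¹) * (s * j' * s⁻¹) := by rw [h]; group
        _ = c' * j'⁻¹ := by rw [hc1', hj1']
    have h2 : j = j' := huniq j hj j' hj' (by
      calc j * j = (c * j⁻¹)⁻¹ * (c * j) := by group
        _ = (c' * j'⁻¹)⁻¹ * (c' * j') := by rw [h1, h]
        _ = _ := by group)
    exact ⟨by rw [h2] at h; exact mul_right_cancel h, h2⟩
  -- every element inverted by `t` is `a * b * a` with `a` fixed by `u`, `b` by `t * u`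
  have inv_decomp : ∀ i ∈ R, t * i * t⁻¹ = i⁻¹ → ∃ a b : G, u * a * u⁻¹ = a ∧
      (t * u) * b * (t * u)⁻¹ = b ∧ i = a * b * a := by
    intro i hi hti
    obtain ⟨c, j, rfl, hc, hj, huc, huj⟩ := decomp u hu i hi
    have hcomm : ∀ g : G, u * (t * g * t⁻¹) * u⁻¹ = t * (u * g * u⁻¹) * t⁻¹ := fun g => by
      calc u * (t * g * t⁻¹) * u⁻¹ = (u * t) * g * (u * t)⁻¹ := by group
        _ = (t * u) * g * (t * u)⁻¹ := by rw [htu]
        _ = _ := by group
    obtain ⟨htc, htj⟩ := uniqD u (t * c * t⁻¹) (t * j * t⁻¹) c⁻¹ (c * j⁻¹ * c⁻¹) (hn c hc t) (hn j hj t)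
      (inv_mem hc) (hn _ (inv_mem hj) c) (by rw [hcomm, huc]) (by rw [hcomm, huj]; group)
      (by calc u * c⁻¹ * u⁻¹ = (u * c * u⁻¹)⁻¹ := by group
            _ = _ := by rw [huc])
      (by calc u * (c * j⁻¹ * c⁻¹) * u⁻¹
              = (u * c * u⁻¹) * (u * j * u⁻¹)⁻¹ * (u * c * u⁻¹)⁻¹ := by group
            _ = (c * j⁻¹ * c⁻¹)⁻¹ := by rw [huc, huj]; group)
      (by calc t * c * t⁻¹ * (t * j * t⁻¹) = t * (c * j) * t⁻¹ := by group
            _ = (c * j)⁻¹ := hti
            _ = _ := by group)
    set a := c ^ k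
    have haa : a * a = c := hk c hc
    have haR : a ∈ R := pow_mem hc k
    have hua : u * a * u⁻¹ = a := huniq _ (hn a haR u) _ haR (by
      calc (u * a * u⁻¹) * (u * a * u⁻¹) = u * (a * a) * u⁻¹ := by group
        _ = a * a := by rw [haa, huc])
    have hta : t * a * t⁻¹ = a⁻¹ := huniq _ (hn a haR t) _ (inv_mem haR) (by
      calc (t * a * t⁻¹) * (t * a * t⁻¹) = t * (a * a) * t⁻¹ := by group
        _ = c⁻¹ := by rw [haa, htc]
        _ = a⁻¹ * a⁻¹ := by rw [← haa]; group)
    refine ⟨a, a * j * a⁻¹, hua, ?_, ?_⟩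
    · calc (t * u) * (a * j * a⁻¹) * (t * u)⁻¹
          = t * ((u * a * u⁻¹) * (u * j * u⁻¹) * (u * a * u⁻¹)⁻¹) * t⁻¹ := by group
        _ = (t * a * t⁻¹) * (t * j * t⁻¹)⁻¹ * (t * a * t⁻¹)⁻¹ := by rw [hua, huj]; group
        _ = a⁻¹ * (c * j⁻¹ * c⁻¹)⁻¹ * a := by rw [hta, htj, inv_inv]
        _ = a⁻¹ * (a * a) * j * (a⁻¹ * a⁻¹) * a := by rw [← haa]; group
        _ = a * j * a⁻¹ := by group
    · rw [← haa]; group
  have hmem : ∀ s g : G, s * g * s⁻¹ = g → g ∈ centralizer ({s} : Set G) := fun s g h =>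
    mem_centralizer_singleton_iff.mpr (mul_inv_eq_iff_eq_mul.mp h).symm
  have hchoice : ∀ r : R, ∃ x : centralizer ({t} : Set G) ×
      (centralizer ({u} : Set G) × centralizer ({t * u} : Set G)),
      (r : G) = x.1 * ((x.2.1 : G) * x.2.2 * x.2.1) := by
    intro r
    obtain ⟨c, i, hr, -, hi, htc, hti⟩ := decomp t ht r r.2
    obtain ⟨a, b, ha, hb, hab⟩ := inv_decomp i hi hti
    exact ⟨⟨⟨c, hmem t c htc⟩, ⟨a, hmem u a ha⟩, ⟨b, hmem _ b hb⟩⟩, by rw [hr, hab]⟩
  choose f hf using hchoice
  rw [← Nat.card_prod, ← Nat.card_prod]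
  refine Nat.card_le_card_of_injective f fun r r' h => Subtype.ext ?_
  rw [hf r, hf r', h]

/-! ### Passing to quotients and the bound -/

theorem card_centralizer_quotient_le [Finite G] (N : Subgroup G) [N.Normal] (t : G) :
    Nat.card (centralizer ({(t : G ⧸ N)} : Set (G ⧸ N))) ≤
      Nat.card N * Nat.card (centralizer ({t} : Set G)) := by
  set C' := centralizer ({(t : G ⧸ N)} : Set (G ⧸ N))
  choose lift hlift using fun g : C' => QuotientGroup.mk_surjective (g : G ⧸ N)
  set f : C' → N := fun g => ⟨lift g * t * (lift g)⁻¹ * t⁻¹, by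
    rw [← QuotientGroup.eq_one_iff]
    rw [QuotientGroup.mk_mul, QuotientGroup.mk_mul, QuotientGroup.mk_mul, QuotientGroup.mk_inv,
      QuotientGroup.mk_inv, hlift, mem_centralizer_singleton_iff.mp g.2, mul_inv_cancel_right, mul_inv_cancel]⟩
  haveI := Fintype.ofFinite C'
  haveI := Fintype.ofFinite N
  rw [Nat.card_eq_fintype_card, Nat.card_eq_fintype_card (α := N), mul_comm]
  refine (Finset.card_le_mul_card_image (f := f) Finset.univ _ fun x hx => ?_).trans
    (Nat.mul_le_mul_left _ (Finset.card_le_univ _))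
  obtain ⟨g₀, -, rfl⟩ := Finset.mem_image.mp hx
  rw [← Fintype.card_subtype, ← Nat.card_eq_fintype_card]
  refine Nat.card_le_card_of_injective (fun g : {g // f g = f g₀} =>
    (⟨(lift g₀)⁻¹ * lift g, ?_⟩ : centralizer ({t} : Set G))) fun a b h => ?_
  · have h : lift g.1 * t * (lift g.1)⁻¹ = lift g₀ * t * (lift g₀)⁻¹ :=
      mul_right_cancel (congrArg Subtype.val g.2)
    rw [mem_centralizer_singleton_iff]
    calc (lift g₀)⁻¹ * lift g.1 * t = (lift g₀)⁻¹ * (lift g.1 * t * (lift g.1)⁻¹) * lift g.1 := by group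
      _ = t * ((lift g₀)⁻¹ * lift g.1) := by rw [h]; group
  · have h' : lift a.1 = lift b.1 := mul_left_cancel (congrArg Subtype.val h)
    exact Subtype.ext (Subtype.ext (by rw [← hlift a.1, ← hlift b.1, h']))

universe v

/-- The hypothesis: a four-group all of whose involutions have centralisers of order at most `n`. -/
def HasBoundedFour (G : Type v) [Group G] (n : ℕ) : Prop :=
  ∃ t u : G, t * t = 1 ∧ u * u = 1 ∧ t * u = u * t ∧ t ≠ 1 ∧ u ≠ 1 ∧ t ≠ u ∧
    ∀ s ∈ ({t, u, t * u} : Set G), Nat.card (centralizer ({s} : Set G)) ≤ n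

theorem bound_of_core_free {X : Type v} [Group X] [Finite X] {a n B N' : ℕ}
    (hN' : ∀ (Y : Type v) [Group Y] [Finite Y], (Nat.card Y).factorization 2 ≤ a →
      HasBoundedFour Y (B * n) → Nat.card Y ≤ N')
    (h : HasBoundedFour X n) (ha : (Nat.card X).factorization 2 ≤ a + 1)
    (hO : ∀ N : Subgroup X, N.Normal → (Nat.card N).Coprime 2 → N = ⊥)
    (hB : Nat.factorial (2 * n ^ 2) ^ (a + 1) + 2 ^ (a + 1) = B) :
    Nat.card X ≤ max (n * Nat.factorial B) (B * N') := by
  haveI : Fact (Nat.Prime 2) := ⟨Nat.prime_two⟩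
  obtain ⟨t, u, ht, hu, htu, ht1, hu1, hne, hcen⟩ := h
  have htu1 : t * u ≠ 1 := fun h => hne (mul_right_cancel (h.trans hu.symm))
  have hto : orderOf t = 2 := orderOf_eq_prime (by rw [sq, ht]) ht1
  haveI : Nontrivial X := ⟨⟨t, 1, ht1⟩⟩
  obtain ⟨M, ⟨hMn, hM1⟩, hMmin⟩ := (Set.toFinite {K : Subgroup X | K.Normal ∧ K ≠ ⊥}).exists_minimalFor
    id _ ⟨⊤, inferInstance, top_ne_bot⟩
  have hmin : ∀ K : Subgroup X, K.Normal → K ≤ M → K = ⊥ ∨ K = M := fun K hK hle =>
    or_iff_not_imp_left.mpr fun hK1 => le_antisymm hle (hMmin ⟨hK, hK1⟩ hle)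
  have heven : Even (Nat.card M) := by
    by_contra hodd
    exact hM1 (hO M hMn (Nat.coprime_two_right.mpr (Nat.not_even_iff_odd.mp hodd)))
  have hMa : (Nat.card M).factorization 2 ≤ a + 1 :=
    le_trans ((Nat.factorization_le_iff_dvd Nat.card_pos.ne' Nat.card_pos.ne').mpr
      (card_subgroup_dvd_card M) 2) ha
  have hMB : Nat.card M ≤ B :=
    hB ▸ bound_minimal_normal hMn hM1 hmin heven hMa hto (hcen t (by simp))
  haveI := hMn
  by_cases hmeet : ∃ s ∈ ({t, u, t * u} : Set X), s ∈ M
  · obtain ⟨s, hs, hsM⟩ := hmeet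
    refine le_trans ?_ (le_max_left _ _)
    set φ := (MulAut.conjNormal : X →* MulAut M)
    have hker : Nat.card φ.ker ≤ n := by
      refine le_trans (card_le_of_le fun g hg => ?_) (hcen s hs)
      rw [mem_centralizer_singleton_iff]
      have h1 : ((φ g) ⟨s, hsM⟩ : X) = s := by rw [MonoidHom.mem_ker.mp hg]; rfl
      rw [MulAut.conjNormal_apply] at h1
      exact mul_inv_eq_iff_eq_mul.mp h1
    have him : φ.ker.index ≤ Nat.factorial B := by
      rw [index_ker]
      refine le_trans (Nat.card_le_card_of_injective (fun e : φ.range => (e.1 : MulAut M).toEquiv)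
        fun e e' h => Subtype.ext (MulEquiv.toEquiv_injective h)) ?_
      rw [Nat.card_perm]
      exact Nat.factorial_le hMB
    rw [← φ.ker.card_mul_index]
    exact Nat.mul_le_mul hker him
  · push Not at hmeet
    refine le_trans ?_ (le_max_right _ _)
    set π := QuotientGroup.mk' M
    have hπ : ∀ s ∈ ({t, u, t * u} : Set X), π s ≠ 1 := fun s hs h =>
      hmeet s hs (by rwa [QuotientGroup.mk'_apply, QuotientGroup.eq_one_iff] at h)
    have hQ : HasBoundedFour (X ⧸ M) (B * n) := by
      refine ⟨π t, π u, by rw [← map_mul, ht, map_one], by rw [← map_mul, hu, map_one],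
        by rw [← map_mul, htu, map_mul], hπ t (by simp), hπ u (by simp),
        fun h => hπ (t * u) (by simp) (by rw [map_mul, ← h, ← map_mul, ht, map_one]), ?_⟩
      intro s hs
      have hb : ∀ g ∈ ({t, u, t * u} : Set X),
          Nat.card (centralizer ({π g} : Set (X ⧸ M))) ≤ B * n := fun g hg =>
        (card_centralizer_quotient_le M g).trans (Nat.mul_le_mul hMB (hcen g hg))
      rw [← map_mul, Set.mem_insert_iff, Set.mem_insert_iff, Set.mem_singleton_iff] at hs
      rcases hs with rfl | rfl | rfl <;> exact hb _ (by simp)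
    have hQa : (Nat.card (X ⧸ M)).factorization 2 ≤ a := by
      have h1 := congrArg (fun k : ℕ => k.factorization 2) M.card_eq_card_quotient_mul_card_subgroup
      simp only [Nat.factorization_mul Nat.card_pos.ne' Nat.card_pos.ne', Finsupp.add_apply] at h1
      have := Nat.prime_two.factorization_pos_of_dvd Nat.card_pos.ne' (even_iff_two_dvd.mp heven)
      omega
    rw [M.card_eq_card_quotient_mul_card_subgroup, mul_comm]
    exact Nat.mul_le_mul hMB (hN' (X ⧸ M) hQa hQ)

/-- The order is bounded by the Sylow `2`-order and such centralisers. -/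
theorem four_group_bound : ∀ a n : ℕ, ∃ N : ℕ, ∀ (G : Type v) [Group G] [Finite G],
    (Nat.card G).factorization 2 ≤ a → HasBoundedFour G n → Nat.card G ≤ N := by
  haveI : Fact (Nat.Prime 2) := ⟨Nat.prime_two⟩
  intro a
  induction a with
  | zero =>
    intro n
    refine ⟨0, fun G _ _ ha ⟨t, u, ht, _, _, ht1, _⟩ => ?_⟩
    have h := orderOf_dvd_natCard t
    rw [orderOf_eq_prime (by rw [sq, ht]) ht1] at h
    exact absurd (Nat.prime_two.factorization_pos_of_dvd Nat.card_pos.ne' h) (by omega)
  | succ a ih =>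
    intro n
    -- centralisers modulo the odd core, and the bound on minimal normal subgroups there
    set n₁ := n ^ 3 * n
    set B := Nat.factorial (2 * n₁ ^ 2) ^ (a + 1) + 2 ^ (a + 1)
    obtain ⟨N', ih₀⟩ := ih (B * n₁)
    refine ⟨n ^ 3 * (max (n₁ * Nat.factorial B) (B * N')), fun G _ _ ha h => ?_⟩
    obtain ⟨t, u, ht, hu, htu, ht1, hu1, hne, hcen⟩ := h
    have htu1 : t * u ≠ 1 := fun h => hne (mul_right_cancel (h.trans hu.symm))
    set R := Cfsg.pPrimeCore 2 G with hRdef
    have hRn : R.Normal := inferInstance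
    have hRodd : Odd (Nat.card R) := Nat.coprime_two_right.mp (Solv.coprime_pPrimeCore 2)
    have hR : Nat.card R ≤ n ^ 3 := by
      refine (card_odd_le hRodd ht hu htu).trans ?_
      rw [show n ^ 3 = n * (n * n) by ring]
      exact Nat.mul_le_mul (hcen t (by simp)) (Nat.mul_le_mul (hcen u (by simp)) (hcen _ (by simp)))
    rw [R.card_eq_card_quotient_mul_card_subgroup, mul_comm]
    refine Nat.mul_le_mul hR ?_
    set π := QuotientGroup.mk' R
    have hinj : ∀ s : G, s * s = 1 → π s = 1 → s = 1 := fun s hs h => by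
      by_contra h1
      rw [QuotientGroup.mk'_apply, QuotientGroup.eq_one_iff] at h
      have h2 := orderOf_dvd_natCard (⟨s, h⟩ : R)
      rw [← orderOf_coe, orderOf_eq_prime (by rw [sq, hs]) h1] at h2
      exact (Nat.not_even_iff_odd.mpr hRodd) (even_iff_two_dvd.mpr h2)
    have hsq : (t * u) * (t * u) = 1 := by
      calc (t * u) * (t * u) = t * (u * t) * u := by group
        _ = t * t * (u * u) := by rw [← htu]; group
        _ = 1 := by rw [ht, hu, one_mul]
    have hQ : HasBoundedFour (G ⧸ R) n₁ := by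
      refine ⟨π t, π u, by rw [← map_mul, ht, map_one], by rw [← map_mul, hu, map_one],
        by rw [← map_mul, htu, map_mul], fun h => ht1 (hinj t ht h), fun h => hu1 (hinj u hu h),
        fun h => htu1 (hinj _ hsq (by rw [map_mul, ← h, ← map_mul, ht, map_one])), ?_⟩
      intro s hs
      have hb : ∀ g ∈ ({t, u, t * u} : Set G),
          Nat.card (centralizer ({π g} : Set (G ⧸ R))) ≤ n₁ := fun g hg =>
        (card_centralizer_quotient_le R g).trans (Nat.mul_le_mul hR (hcen g hg))
      rw [← map_mul, Set.mem_insert_iff, Set.mem_insert_iff, Set.mem_singleton_iff] at hs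
      rcases hs with rfl | rfl | rfl <;> exact hb _ (by simp)
    have haQ : (Nat.card (G ⧸ R)).factorization 2 ≤ a + 1 :=
      le_trans ((Nat.factorization_le_iff_dvd Nat.card_pos.ne' Nat.card_pos.ne').mpr
        (card_quotient_dvd_card R) 2) ha
    have hO : ∀ N : Subgroup (G ⧸ R), N.Normal → (Nat.card N).Coprime 2 → N = ⊥ :=
      (Solv.pPrimeCore_eq_bot_iff_forall 2).mp (Solv.pPrimeCore_quotient_eq_bot 2)
    exact bound_of_core_free ih₀ hQ haQ hO rfl

end Cfsg.Lib.Invol
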