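import Mathlib
import Cfsg.Agent.Lib.Invol.Counting
import Cfsg.Agent.Lib.Characters.Burnside

/-!
Consequences of the Brauer–Fowler count.
-/

set_option autoImplicit false
set_option maxHeartbeats 400000

namespace Cfsg.Lib.Invol

open Subgroup

variable {G : Type*} [Group G]

theorem two_dvd_center_of_mem [Finite G] {z : G} (hz : z ∈ center G) (h : orderOf z = 2) :
    2 ∣ Nat.card (center G) := by
  rw [← h, ← orderOf_mk z hz]
  exact orderOf_dvd_natCard _

theorem center_eq_bot_of_simple [IsSimpleGroup G] (hG : ¬ IsMulCommutative G) : center G = ⊥ :=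
  (inferInstance : (center G).Normal).eq_bot_or_eq_top.resolve_right fun h =>
    hG ⟨⟨fun a b => (mem_center_iff.1 (h ▸ mem_top a) b).symm⟩⟩

theorem card_prime_of_simple_comm [Finite G] [IsSimpleGroup G] (hG : IsMulCommutative G) :
    (Nat.card G).Prime := by
  let _ : CommGroup G := { (inferInstance : Group G) with mul_comm := hG.is_comm.comm }
  exact IsSimpleGroup.prime_card

theorem two_of_simple_comm [Finite G] [IsSimpleGroup G] (heven : Even (Nat.card G))
    (hG : IsMulCommutative G) : Nat.card G = 2 :=
  ((Nat.dvd_prime (card_prime_of_simple_comm hG)).1 (even_iff_two_dvd.1 heven)).elim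
    (fun h => absurd h (by norm_num)) fun h => h.symm

theorem index_ne_two_of_simple [Finite G] [IsSimpleGroup G] (hG : ¬ IsMulCommutative G)
    (H : Subgroup G) : H.index ≠ 2 := fun h => by
  rcases (normal_of_index_eq_two h).eq_bot_or_eq_top with rfl | rfl
  · rw [index_bot] at h
    have : Fact (Nat.Prime 2) := ⟨Nat.prime_two⟩
    have := isCyclic_of_prime_card h
    exact hG ⟨⟨(IsCyclic.commGroup (α := G)).mul_comm⟩⟩
  · simp at h

theorem toPermHom_injective [IsSimpleGroup G] {H : Subgroup G} (hH : H ≠ ⊤) :
    Function.Injective (MulAction.toPermHom G (G ⧸ H)) := by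
  rw [← MonoidHom.ker_eq_bot_iff, ← normalCore_eq_ker]
  exact (inferInstance : H.normalCore.Normal).eq_bot_or_eq_top.resolve_right fun h =>
    hH (top_le_iff.1 (h ▸ H.normalCore_le))

theorem card_le_factorial_index [Finite G] [IsSimpleGroup G] {H : Subgroup G} (hH : H ≠ ⊤) :
    Nat.card G ≤ Nat.factorial H.index :=
  (Nat.card_le_card_of_injective _ (toPermHom_injective hH)).trans_eq (Nat.card_perm)

theorem bound_index [Finite G] (heven : Even (Nat.card G)) (hZ : Odd (Nat.card (center G))) :
    ∃ H : Subgroup G, H ≠ ⊤ ∧ (H.index = 2 ∨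
      2 * H.index * (Nat.card (Invs G)) ^ 2 < Nat.card G * (Nat.card G + Nat.card (Invs G))) := by
  by_cases h2 : ∀ H : Subgroup G, H.index ≠ 2
  · obtain ⟨H, hH, -, hb⟩ := exists_proper_subgroup_bound heven (fun z hz h =>
      (Nat.not_even_iff_odd.2 hZ) (even_iff_two_dvd.2 (two_dvd_center_of_mem hz h))) h2
    refine ⟨H, hH, Or.inr ?_⟩
    have hI : 0 < H.index := Nat.pos_of_ne_zero index_ne_zero_of_finite
    have := H.card_mul_index
    calc 2 * H.index * Nat.card (Invs G) ^ 2 = H.index * (2 * Nat.card (Invs G) ^ 2) := by ring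
      _ < H.index * (Nat.card H * (Nat.card G + Nat.card (Invs G))) :=
          Nat.mul_lt_mul_of_pos_left hb hI
      _ = Nat.card G * (Nat.card G + Nat.card (Invs G)) := by rw [← this]; ring
  · push Not at h2
    obtain ⟨H, hH⟩ := h2
    exact ⟨H, fun h => by simp [h] at hH, Or.inl hH⟩

theorem class_le_invs [Finite G] {t : G} (ht : orderOf t = 2) :
    Nat.card G ≤ Nat.card (Invs G) * Nat.card (centralizer ({t} : Set G)) := by
  rw [← conjClass_ncard_mul t]
  refine Nat.mul_le_mul_right _ (Nat.card_le_card_of_injective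
    (fun s => (⟨s.1, orderTwo_isConj ht s.2⟩ : Invs G)) fun a b h => Subtype.ext (by simpa using h))

theorem invs_le_card [Finite G] : Nat.card (Invs G) ≤ Nat.card G :=
  Nat.card_le_card_of_injective (fun t : Invs G => t.1) Subtype.val_injective

theorem brauer_fowler [Finite G] [IsSimpleGroup G] (t : G) (ht : orderOf t = 2) :
    Nat.card G ≤ Nat.factorial (2 * Nat.card (centralizer ({t} : Set G)) ^ 2) := by
  have heven : Even (Nat.card G) := even_iff_two_dvd.2 (ht ▸ orderOf_dvd_natCard t)
  set c := Nat.card (centralizer ({t} : Set G)) with hc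
  have hc0 : 0 < c := Nat.card_pos
  by_cases hG : IsMulCommutative G
  · rw [two_of_simple_comm heven hG]
    exact le_trans (by norm_num : 2 ≤ Nat.factorial 2) (Nat.factorial_le (by nlinarith))
  obtain ⟨H, hH, -, hb⟩ := exists_proper_subgroup_bound heven (fun z hz h => by
    rw [center_eq_bot_of_simple hG, mem_bot] at hz
    exact ne_one_of_orderTwo h hz) (index_ne_two_of_simple hG)
  refine (card_le_factorial_index hH).trans (Nat.factorial_le ?_)
  have h1 := class_le_invs ht
  have h2 := invs_le_card (G := G)
  have h3 := H.card_mul_index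
  have hh : 0 < Nat.card H := Nat.card_pos
  have hg : 0 < Nat.card G := Nat.card_pos
  by_contra hlt
  push Not at hlt
  rw [← hc] at h1
  have h4 : Nat.card G * Nat.card G ≤ Nat.card (Invs G) ^ 2 * c ^ 2 := by
    calc Nat.card G * Nat.card G ≤ (Nat.card (Invs G) * c) * (Nat.card (Invs G) * c) :=
          Nat.mul_le_mul h1 h1
      _ = _ := by ring
  have h5 : 2 * Nat.card (Invs G) ^ 2 < Nat.card H * (2 * Nat.card G) :=
    hb.trans_le (Nat.mul_le_mul_left _ (by omega))
  have h6 : Nat.card H * (2 * c ^ 2) * Nat.card G < Nat.card H * H.index * Nat.card G :=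
    Nat.mul_lt_mul_of_pos_right (Nat.mul_lt_mul_of_pos_left hlt hh) hg
  have h7 : 2 * Nat.card (Invs G) ^ 2 * c ^ 2 < Nat.card H * (2 * Nat.card G) * c ^ 2 :=
    Nat.mul_lt_mul_of_pos_right h5 (by positivity)
  rw [h3] at h6
  nlinarith

/-- A group of even order `> 2` has a proper subgroup of order `> |G|^(1/3)`. -/
theorem exists_large_subgroup : ∀ (n : ℕ) (G : Type*) [Group G] [Finite G], Nat.card G = n →
    Even n → 2 < n → ∃ H : Subgroup G, H ≠ ⊤ ∧ Nat.card G < Nat.card H ^ 3 := by
  intro n
  induction n using Nat.strong_induction_on with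
  | _ n ih =>
    intro G _ _ hn heven hgt
    by_cases h2 : ∀ H : Subgroup G, H.index ≠ 2
    swap
    · push Not at h2
      obtain ⟨H, hH⟩ := h2
      refine ⟨H, fun h => by simp [h] at hH, ?_⟩
      have := H.card_mul_index
      rw [hH] at this
      have h4 : 4 ≤ Nat.card G := by
        obtain ⟨k, hk⟩ := heven
        omega
      have h22 : 4 ≤ Nat.card H * Nat.card H :=
        Nat.mul_le_mul (show 2 ≤ Nat.card H by omega) (show 2 ≤ Nat.card H by omega)
      rw [← this]
      nlinarith
    by_cases hZ : ∀ z ∈ center G, orderOf z ≠ 2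
    · obtain ⟨H, hH, hmax, hb⟩ := exists_proper_subgroup_bound (hn ▸ heven) hZ h2
      refine ⟨H, hH, ?_⟩
      obtain ⟨t, ht⟩ := exists_prime_orderOf_dvd_card' (G := G) 2
        (even_iff_two_dvd.1 (hn ▸ heven))
      have h1 := class_le_invs ht
      have hc := hmax t ht
      have hI := invs_le_card (G := G)
      have hg : 0 < Nat.card G := Nat.card_pos
      have hh : 0 < Nat.card H := Nat.card_pos
      have hm : Nat.card G ≤ Nat.card (Invs G) * Nat.card H :=
        h1.trans (Nat.mul_le_mul_left _ hc)
      have h5 : 2 * Nat.card (Invs G) ^ 2 < Nat.card H * (2 * Nat.card G) :=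
        hb.trans_le (Nat.mul_le_mul_left _ (by omega))
      have h6 : Nat.card G * Nat.card G ≤ Nat.card (Invs G) ^ 2 * Nat.card H ^ 2 := by
        calc Nat.card G * Nat.card G ≤
              (Nat.card (Invs G) * Nat.card H) * (Nat.card (Invs G) * Nat.card H) :=
            Nat.mul_le_mul hm hm
          _ = _ := by ring
      have h7 : 2 * Nat.card (Invs G) ^ 2 * Nat.card H ^ 2 <
          Nat.card H * (2 * Nat.card G) * Nat.card H ^ 2 :=
        Nat.mul_lt_mul_of_pos_right h5 (by positivity)
      by_contra hle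
      push Not at hle
      have h8 := Nat.mul_le_mul_left (Nat.card G) hle
      nlinarith
    push Not at hZ
    obtain ⟨z, hz, hz2⟩ := hZ
    set N := zpowers z with hN
    have hNn : N.Normal := ⟨fun a ha g => by
      obtain ⟨k, rfl⟩ := mem_zpowers_iff.1 ha
      rw [mem_center_iff.1 ((center G).zpow_mem hz k) g, mul_inv_cancel_right]
      exact zpow_mem_zpowers z k⟩
    have hNc : Nat.card N = 2 := by rw [hN, Nat.card_zpowers, hz2]
    have hmul := N.card_mul_index
    rw [hNc] at hmul
    by_cases hq : Even N.index ∧ 2 < N.index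
    · obtain ⟨K, hK, hKb⟩ := ih N.index (by omega) (G ⧸ N) (index_eq_card N).symm hq.1 hq.2
      refine ⟨K.comap (QuotientGroup.mk' N), fun h => hK ?_, ?_⟩
      · rw [← map_comap_eq_self_of_surjective (QuotientGroup.mk'_surjective N) K, h,
          map_top_of_surjective _ (QuotientGroup.mk'_surjective N)]
      · have hidx : (K.comap (QuotientGroup.mk' N)).index = K.index :=
          index_comap_of_surjective _ (QuotientGroup.mk'_surjective N)
        have e1 := (K.comap (QuotientGroup.mk' N)).card_mul_index
        have e2 := K.card_mul_index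
        rw [hidx] at e1
        rw [← index_eq_card] at e2 hKb
        set a := Nat.card ↥(K.comap (QuotientGroup.mk' N))
        have hKi : 0 < K.index := Nat.pos_of_ne_zero index_ne_zero_of_finite
        have ha : a = 2 * Nat.card K := by
          refine Nat.eq_of_mul_eq_mul_right hKi ?_
          rw [e1, ← hmul, ← e2]
          ring
        rw [ha, ← hmul, mul_pow]
        omega
    · exfalso
      rcases Nat.even_or_odd N.index with he | ho
      · have : N.index = 2 := by
          obtain ⟨k, hk⟩ := he
          have : ¬ 2 < N.index := fun h => hq ⟨⟨k, hk⟩, h⟩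
          omega
        exact h2 N this
      · obtain ⟨K, hK⟩ := exists_right_complement'_of_coprime (N := N) (by
          rw [hNc]; exact (Nat.coprime_two_left).2 ho)
        exact h2 K (by rw [hK.index_eq_card, hNc])

theorem card_invs_alternating_five :
    Nat.card {t : alternatingGroup (Fin 5) // orderOf t = 2} = 15 := by
  have e : {t : alternatingGroup (Fin 5) // orderOf t = 2} ≃
      {t : alternatingGroup (Fin 5) // t ≠ 1 ∧ t * t = 1} :=
    Equiv.subtypeEquivRight fun t =>
      ⟨fun h => ⟨ne_one_of_orderTwo h, mul_self_of_orderTwo h⟩, fun h => orderTwo_of_mul_self h.2 h.1⟩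
  rw [Nat.card_congr e, Nat.card_eq_fintype_card]
  decide

theorem three_mul_invs_lt [Finite G] [IsSimpleGroup G] (heven : Even (Nat.card G))
    (hgt : 2 < Nat.card G) : 3 * Nat.card (Invs G) < Nat.card G := by
  have hG : ¬ IsMulCommutative G := fun h => by
    have := two_of_simple_comm heven h
    omega
  have hns : ¬ Group.IsSolvable G := fun h =>
    hG ⟨⟨(IsSimpleGroup.comm_iff_isSolvable.2 h)⟩⟩
  by_contra hle
  push Not at hle
  obtain ⟨H, hH, h | hb⟩ := bound_index heven (by rw [center_eq_bot_of_simple hG, card_bot]; decide)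
  · exact index_ne_two_of_simple hG H h
  have hI : H.index ≤ 5 := by
    by_contra h6
    push Not at h6
    have hn := invs_pos heven
    nlinarith
  set f := MulAction.toPermHom G (G ⧸ H) with hf
  have hinj : Function.Injective f := toPermHom_injective hH
  have h2 : Nat.card G ∣ Nat.factorial H.index := by
    have := card_dvd_of_injective f hinj
    rwa [Nat.card_perm] at this
  have h120 : Nat.card G ∣ 120 := h2.trans (Nat.factorial_dvd_factorial hI)
  by_cases h60 : Nat.card G ∣ 24 ∨ Nat.card G = 40 ∨ Nat.card G = 20 ∨ Nat.card G = 10 ∨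
      Nat.card G = 5
  · refine hns ?_
    rcases h60 with h | h | h | h | h
    · have hd : Nat.card G ∈ Nat.divisors 24 := Nat.mem_divisors.2 ⟨h, by norm_num⟩
      generalize hm : Nat.card G = m at hd
      refine Cfsg.Lib.Characters.isSolvable_of_card_eq_pow_mul_pow Nat.prime_two Nat.prime_three m G hm ?_
      fin_cases hd <;> first
        | exact ⟨0, 0, rfl⟩ | exact ⟨1, 0, rfl⟩ | exact ⟨0, 1, rfl⟩ | exact ⟨2, 0, rfl⟩
        | exact ⟨1, 1, rfl⟩ | exact ⟨3, 0, rfl⟩ | exact ⟨2, 1, rfl⟩ | exact ⟨3, 1, rfl⟩
    all_goals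
      refine Cfsg.Lib.Characters.isSolvable_of_card_eq_pow_mul_pow Nat.prime_two Nat.prime_five _ G h ?_
      first | exact ⟨3, 1, rfl⟩ | exact ⟨2, 1, rfl⟩ | exact ⟨1, 1, rfl⟩ | exact ⟨0, 1, rfl⟩
  have hI5 : H.index = 5 := by
    by_contra h5
    exact h60 (Or.inl (h2.trans (Nat.factorial_dvd_factorial (show H.index ≤ 4 by omega))))
  have hd : Nat.card G ∈ Nat.divisors 120 := Nat.mem_divisors.2 ⟨h120, by norm_num⟩
  push Not at h60
  obtain ⟨hn24, h40, h20, h10, h5⟩ := h60
  have hcases : Nat.card G = 15 ∨ Nat.card G = 30 ∨ Nat.card G = 60 ∨ Nat.card G = 120 := by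
    generalize Nat.card G = m at hd hn24 h40 h20 h10 h5
    fin_cases hd <;> simp_all
  have := Fintype.ofFinite (G ⧸ H)
  classical
  obtain ⟨e⟩ : Nonempty ((G ⧸ H) ≃ Fin 5) :=
    ⟨Fintype.equivFinOfCardEq (by rw [← Nat.card_eq_fintype_card, ← index_eq_card, hI5])⟩
  let g : G →* Equiv.Perm (Fin 5) := e.permCongrHom.toMonoidHom.comp f
  have hg : Function.Injective g := e.permCongrHom.injective.comp hinj
  have hgA : ∀ x, g x ∈ alternatingGroup (Fin 5) := by
    have hcomm : _root_.commutator G = ⊤ :=
      ((inferInstance : (_root_.commutator G).Normal).eq_bot_or_eq_top).resolve_left fun h =>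
        hG ⟨⟨fun a b => commutatorElement_eq_one_iff_mul_comm.1 (mem_bot.1
          (h ▸ commutator_mem_commutator (mem_top a) (mem_top b)))⟩⟩
    intro x
    have hle : _root_.commutator G ≤ ((Equiv.Perm.sign).comp g).ker := Abelianization.commutator_subset_ker _
    exact hle (hcomm ▸ mem_top x)
  let g' : G →* alternatingGroup (Fin 5) := g.codRestrict _ hgA
  have hg' : Function.Injective g' := fun a b h => hg (congrArg Subtype.val h)
  have hA5 : Nat.card (alternatingGroup (Fin 5)) = 60 := by
    rw [nat_card_alternatingGroup, Nat.card_eq_fintype_card, Fintype.card_fin]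
    rfl
  have hle60 : Nat.card G ≤ 60 := hA5 ▸ Nat.card_le_card_of_injective _ hg'
  have hinv : Nat.card (Invs G) ≤ 15 := card_invs_alternating_five ▸
    Nat.card_le_card_of_injective
      (fun t : Invs G => (⟨g' t.1, (orderOf_injective g' hg' t.1).trans t.2⟩ :
        {t : alternatingGroup (Fin 5) // orderOf t = 2}))
      fun a b h => Subtype.ext (hg' (congrArg Subtype.val h))
  rcases hcases with h | h | h | h
  · exact absurd (h ▸ heven) (by decide)
  · have hlt : (g'.range).index = 2 := by
      have h1 := g'.range.card_mul_index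
      rw [← Nat.card_congr (MonoidHom.ofInjective hg').toEquiv, h, hA5] at h1
      omega
    have hnot : ¬ IsMulCommutative (alternatingGroup (Fin 5)) := fun hc => by
      have := card_prime_of_simple_comm hc
      rw [hA5] at this
      norm_num at this
    exact index_ne_two_of_simple hnot g'.range hlt
  · omega
  · omega

end Cfsg.Lib.Invol
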