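import Mathlib
import Cfsg.Agent.Lib.Invol.IsolatedStructure

/-!
An isolated involution and the Sylow subgroups it normalizes.
-/

set_option autoImplicit false
set_option maxHeartbeats 400000

namespace Cfsg.Lib.Invol

open Subgroup
open scoped Pointwise

variable {G : Type*} [Group G]

theorem invariant_normalizer {z : G} {Q : Subgroup G} (hz : z ∈ normalizer (Q : Set G)) :
    z ∈ normalizer ((normalizer (Q : Set G) : Subgroup G) : Set G) := le_normalizer hz

theorem normalizes_inf {z : G} {A B : Subgroup G} (hA : z ∈ normalizer (A : Set G))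
    (hB : z ∈ normalizer (B : Set G)) : z ∈ normalizer ((A ⊓ B : Subgroup G) : Set G) := by
  rw [← Cfsg.Lib.Solv.conj_smul_eq_self_iff] at hA hB ⊢
  rw [Subgroup.smul_inf, hA, hB]

variable [Finite G]

/-- An isolated involution normalizes a Sylow `p`-subgroup. -/
theorem exists_invariant_sylow_isolated {z : G} (hz : Cfsg.IsIsolatedInvolution z)
    (p : ℕ) [hp : Fact p.Prime] (hp2 : p ≠ 2) :
    ∃ P : Sylow p G, z ∈ normalizer ((P : Subgroup G) : Set G) := by
  set W := Cfsg.oddCore G with hWdef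
  have hWn : W.Normal := Cfsg.Lib.Transfer.pPrimeCore_normal 2
  have hW2 : (Nat.card W).Coprime 2 := Cfsg.Lib.Transfer.coprime_card_pPrimeCore 2
  have hzcard : Nat.card (zpowers z) = 2 := by rw [Nat.card_zpowers, hz.1]
  obtain ⟨S, hS⟩ := Cfsg.Lib.Solv.exists_invariant_sylow (zpowers z) W le_normalizer_of_normal
    (by rw [hzcard]; exact hW2.symm)
    (Or.inl (by
      have := (IsPGroup.of_card (n := 1) (by rw [hzcard, pow_one]) : IsPGroup 2 (zpowers z)).isNilpotent
      infer_instance)) p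
  set S' := (S : Subgroup W).map W.subtype with hS'
  have hzS : z ∈ normalizer (S' : Set G) := hS (mem_zpowers z)
  set L := normalizer (S' : Set G) with hL
  set CL := L ⊓ centralizer ({z} : Set G) with hCL
  obtain ⟨T⟩ : Nonempty (Sylow p ↥CL) := inferInstance
  set T' := (T : Subgroup ↥CL).map CL.subtype with hT'
  have hTL : T' ≤ L := (map_subtype_le _).trans inf_le_left
  have hR : IsPGroup p ↥(S' ⊔ T') :=
    IsPGroup.to_sup_of_normal_left' (S.isPGroup'.map _) (T.isPGroup'.map _) hTL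
  have hzT : z ∈ normalizer (T' : Set G) :=
    centralizer_le_normalizer _ (mem_centralizer_iff.2 fun t ht =>
      mem_centralizer_singleton_iff.1 ((map_subtype_le (T : Subgroup ↥CL)).trans inf_le_right ht))
  have hzR : z ∈ normalizer ((S' ⊔ T' : Subgroup G) : Set G) := by
    rw [← Cfsg.Lib.Solv.conj_smul_eq_self_iff, Subgroup.smul_sup,
      Cfsg.Lib.Solv.conj_smul_eq_self_iff.2 hzS, Cfsg.Lib.Solv.conj_smul_eq_self_iff.2 hzT]
  obtain ⟨P, hP⟩ := hR.exists_le_sylow
  -- the index of `S' ⊔ T'` is prime to `p`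
  suffices hidx : ¬ p ∣ (S' ⊔ T').index by
    refine ⟨P, ?_⟩
    have hd : (S' ⊔ T').relIndex P ∣ (S' ⊔ T').index :=
      ⟨_, (relIndex_mul_index hP).symm⟩
    obtain ⟨n, hn⟩ := IsPGroup.iff_card.1 P.isPGroup'
    have hd2 : (S' ⊔ T').relIndex P ∣ p ^ n := hn ▸ ((S' ⊔ T').subgroupOf P).index_dvd_card
    have h1 : (S' ⊔ T').relIndex P = 1 := Nat.eq_one_of_dvd_coprimes
      (((hp.out.coprime_iff_not_dvd).2 hidx).pow_left n) hd2 hd
    rwa [le_antisymm (relIndex_eq_one.1 h1) hP]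
  have hLtop : W ⊔ L = ⊤ := by
    rw [sup_comm]
    exact Sylow.normalizer_sup_eq_top S
  have hcov : ∀ g ∈ L, ∃ w ∈ W ⊓ L, ∃ c ∈ CL, g = w * c := by
    intro g hg
    obtain ⟨k, hk, hki, hkc, -⟩ := existsUnique_oddInv hz (invariant_normalizer hzS) hg
    exact ⟨k, ⟨oddInv_mem_oddCore hz hki, hk⟩, k⁻¹ * g, ⟨L.mul_mem (L.inv_mem hk) hg, by
      have := Subgroup.inv_mem _ hkc
      rwa [mul_inv_rev, inv_inv] at this⟩, by group⟩
  have htop : W ⊔ CL = ⊤ := by
    rw [← top_le_iff, ← hLtop]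
    refine sup_le le_sup_left fun g hg => ?_
    obtain ⟨w, hw, c, hc, rfl⟩ := hcov g hg
    exact mul_mem_sup hw.1 hc
  have h1 : ¬ p ∣ (S' ⊔ T').relIndex (W ⊔ T') := by
    intro h
    have hle : S' ⊔ T' ≤ W ⊔ T' := sup_le_sup_right (map_subtype_le _) _
    have hmul : S'.relIndex (W ⊔ T') = S'.relIndex W * W.relIndex (W ⊔ T') :=
      (relIndex_mul_relIndex _ _ _ (map_subtype_le _) le_sup_left).symm
    have hmul2 : S'.relIndex (W ⊔ T') = S'.relIndex (S' ⊔ T') * (S' ⊔ T').relIndex (W ⊔ T') :=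
      (relIndex_mul_relIndex _ _ _ le_sup_left hle).symm
    have hSW : S'.relIndex W = (S : Subgroup W).index := by
      rw [relIndex, hS', subgroupOf, comap_map_eq_self_of_injective W.subtype_injective]
    have hWT : W.relIndex (W ⊔ T') = W.relIndex T' := relIndex_sup_left _ _
    -- the `p`-part of both sides
    have hST : W.relIndex T' ∣ S'.relIndex (S' ⊔ T') := by
      have hTn : (S'.subgroupOf (S' ⊔ T')).Normal :=
        normal_subgroupOf_of_le_normalizer (sup_le le_normalizer hTL)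
      have e : S'.relIndex (S' ⊔ T') = S'.relIndex T' := by
        have h' := relIndex_sup_left (H := T'.subgroupOf (S' ⊔ T')) (K := S'.subgroupOf (S' ⊔ T'))
        rwa [← subgroupOf_sup le_sup_left le_sup_right, relIndex_subgroupOf le_rfl,
          relIndex_subgroupOf le_sup_right] at h'
      rw [e]
      exact relIndex_dvd_of_le_left T' (map_subtype_le _)
    obtain ⟨c, hc⟩ := hST
    rw [hmul, hSW, hWT, hc, mul_assoc, mul_comm (S : Subgroup W).index] at hmul2
    have hne : W.relIndex T' ≠ 0 := index_ne_zero_of_finite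
    have : (S : Subgroup W).index = c * (S' ⊔ T').relIndex (W ⊔ T') := mul_left_cancel₀ hne hmul2
    exact S.not_dvd_index (this ▸ dvd_mul_of_dvd_right h _)
  have h2 : ¬ p ∣ (W ⊔ T').index := by
    intro h
    have hd : (W ⊔ T').index ∣ T'.relIndex CL := by
      have e1 : ((W ⊔ T').subgroupOf (W ⊔ CL)).index = (W ⊔ T').index := by
        show (W ⊔ T').relIndex (W ⊔ CL) = _
        rw [htop, relIndex_top_right]
      have hle : T' ≤ CL := map_subtype_le _
      have e2 : (W ⊔ T').relIndex CL = (W ⊔ T').index := by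
        have hf : ∀ g : G, ∃ c ∈ CL, c⁻¹ * g ∈ W ⊔ T' := fun g => by
          have hg : g ∈ ((CL ⊔ W : Subgroup G) : Set G) := by rw [sup_comm, htop]; exact mem_top g
          rw [mul_normal] at hg
          obtain ⟨c, hc, w, hw, rfl⟩ := hg
          exact ⟨c, hc, by rw [inv_mul_cancel_left]; exact mem_sup_left hw⟩
        rw [relIndex, index_eq_card, index_eq_card]
        refine Nat.card_eq_of_bijective
          (Quotient.map' (fun c : ↥CL => (c : G)) fun a b hab => ?_) ⟨?_, ?_⟩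
        · rw [QuotientGroup.leftRel_apply] at hab ⊢
          exact hab
        · rintro ⟨a⟩ ⟨b⟩ hab
          have := QuotientGroup.eq.1 hab
          exact QuotientGroup.eq.2 this
        · rintro ⟨g⟩
          obtain ⟨c, hc, hcg⟩ := hf g
          exact ⟨QuotientGroup.mk ⟨c, hc⟩, QuotientGroup.eq.2 hcg⟩
      rw [← e2]
      exact relIndex_dvd_of_le_left CL le_sup_right
    have : T'.relIndex CL = (T : Subgroup ↥CL).index := by
      rw [relIndex, hT', subgroupOf, comap_map_eq_self_of_injective CL.subtype_injective]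
    exact T.not_dvd_index (this ▸ h.trans hd)
  intro h
  rw [← relIndex_mul_index (show S' ⊔ T' ≤ W ⊔ T' from sup_le_sup_right (map_subtype_le _) _)] at h
  exact (hp.out.dvd_mul.1 h).elim h1 h2

theorem isolated_subtype {z : G} (hz : Cfsg.IsIsolatedInvolution z) {H : Subgroup G} (hzH : z ∈ H) :
    Cfsg.IsIsolatedInvolution (⟨z, hzH⟩ : H) :=
  ⟨by rw [← orderOf_coe]; exact hz.1, fun g hc => Subtype.ext
    (hz.2 g (by simpa [Commute, SemiconjBy, Subtype.ext_iff] using hc))⟩

theorem maximal_invariant_is_sylow {z : G} (hz : Cfsg.IsIsolatedInvolution z) {p : ℕ}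
    [hp : Fact p.Prime] {Q : Subgroup G} (hQ : IsPGroup p Q) (hzQ : z ∈ normalizer (Q : Set G))
    (hmax : ∀ R : Subgroup G, IsPGroup p R → z ∈ normalizer (R : Set G) → Q ≤ R → R = Q) :
    ∃ P : Sylow p G, (P : Subgroup G) = Q := by
  set N := normalizer (Q : Set G) with hN
  have hQN : Q ≤ N := le_normalizer
  have : (Q.subgroupOf N).Normal := normal_subgroupOf_of_le_normalizer le_rfl
  have hQ'p : IsPGroup p ↥(Q.subgroupOf N) := hQ.comap_subtype
  obtain ⟨R, hR⟩ : ∃ R : Sylow p ↥N, z ∈ normalizer (((R : Subgroup ↥N).map N.subtype : Subgroup G) : Set G) := by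
    by_cases hp2 : p = 2
    · subst hp2
      have hzz : IsPGroup 2 ↥(zpowers (⟨z, hzQ⟩ : ↥N)) :=
        IsPGroup.of_card (n := 1) (by rw [Nat.card_zpowers, ← orderOf_coe, pow_one]; exact hz.1)
      obtain ⟨R, hR⟩ := hzz.exists_le_sylow
      exact ⟨R, le_normalizer ⟨⟨z, hzQ⟩, hR (mem_zpowers _), rfl⟩⟩
    · obtain ⟨R, hR⟩ := exists_invariant_sylow_isolated (isolated_subtype hz hzQ) p hp2
      refine ⟨R, ?_⟩
      have h := congrArg (Subgroup.map N.subtype) (Cfsg.Lib.Solv.conj_smul_eq_self_iff.2 hR)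
      rw [Cfsg.Lib.Solv.map_conj_smul] at h
      exact Cfsg.Lib.Solv.conj_smul_eq_self_iff.1 h
  have hQR : Q ≤ (R : Subgroup ↥N).map N.subtype := fun x hx =>
    ⟨⟨x, hQN hx⟩, hQ'p.le_sylow_of_normal R hx, rfl⟩
  have hRQ : (R : Subgroup ↥N).map N.subtype = Q := hmax _ (R.isPGroup'.map _) hR hQR
  obtain ⟨P, hP⟩ := hQ.exists_le_sylow
  refine ⟨P, le_antisymm ?_ hP⟩
  by_contra hle
  have hne : Q.subgroupOf (P : Subgroup G) ≠ ⊤ := fun h => hle (subgroupOf_eq_top.1 h)
  obtain ⟨x, hxN, hxQ⟩ := SetLike.exists_of_lt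
    (@Group.normalizerCondition_of_isNilpotent _ _ P.isPGroup'.isNilpotent _
      (lt_top_iff_ne_top.2 hne))
  have hxn : (x : G) ∈ N := by
    rw [hN, ← Cfsg.Lib.Solv.conj_smul_eq_self_iff]
    have := congrArg (Subgroup.map (P : Subgroup G).subtype) (Cfsg.Lib.Solv.conj_smul_eq_self_iff.2 hxN)
    rwa [Cfsg.Lib.Solv.map_conj_smul, subgroupOf_map_subtype, inf_eq_left.2 hP] at this
  -- the `p`-group `⟨Q, x⟩` of `N` is inside a conjugate of `R`, which is `Q`
  set U := (Q ⊔ zpowers (x : G)).subgroupOf N with hU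
  have hUp : IsPGroup p U :=
    (P.isPGroup'.to_le (sup_le hP (zpowers_le.2 x.2))).comap_subtype
  obtain ⟨R', hR'⟩ := hUp.exists_le_sylow
  have hcard : Nat.card R' = Nat.card R := by
    rw [R'.card_eq_multiplicity, R.card_eq_multiplicity]
  have h1 : Nat.card ↥(Q ⊔ zpowers (x : G)) ≤ Nat.card Q := by
    rw [← Cfsg.Lib.Solv.card_subgroupOf (sup_le hQN (zpowers_le.2 hxn)), ← hU]
    refine (card_le_of_le hR').trans ?_
    rw [hcard, ← hRQ, Cfsg.Lib.Solv.card_map_subtype']
  have h2 : Q ⊔ zpowers (x : G) = Q := (eq_of_le_of_card_ge le_sup_left h1).symm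
  exact hxQ (show (x : G) ∈ Q from h2 ▸ mem_sup_right (mem_zpowers _))

theorem sylow_centralizer {z : G} (hz : Cfsg.IsIsolatedInvolution z) {p : ℕ} [hp : Fact p.Prime]
    (hp2 : p ≠ 2) (P : Sylow p G) (hzP : z ∈ normalizer ((P : Subgroup G) : Set G)) :
    ¬ p ∣ ((P : Subgroup G) ⊓ centralizer ({z} : Set G)).relIndex (centralizer ({z} : Set G)) ∧
      ((P : Subgroup G) ⊓ centralizer ({z} : Set G)).relIndex (P : Subgroup G) =
        Nat.card {x : G // x ∈ P ∧ z * x * z⁻¹ = x⁻¹} := by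
  set C := centralizer ({z} : Set G) with hC
  constructor
  · obtain ⟨R⟩ : Nonempty (Sylow p ↥C) := inferInstance
    set R' := (R : Subgroup ↥C).map C.subtype with hR'
    have hzR : z ∈ normalizer (R' : Set G) := centralizer_le_normalizer _
      (mem_centralizer_iff.2 fun t ht => mem_centralizer_singleton_iff.1 (map_subtype_le _ ht))
    obtain ⟨Q, ⟨hQ, hzQ, hRQ⟩, hmax⟩ := (Set.toFinite {Q : Subgroup G |
      IsPGroup p Q ∧ z ∈ normalizer (Q : Set G) ∧ R' ≤ Q}).exists_maximal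
        ⟨R', R.isPGroup'.map _, hzR, le_rfl⟩
    obtain ⟨P', rfl⟩ := maximal_invariant_is_sylow hz hQ hzQ fun S hS hzS hle =>
      le_antisymm (hmax ⟨hS, hzS, hRQ.trans hle⟩ hle) hle
    obtain ⟨g, rfl⟩ := MulAction.exists_smul_eq G P P'
    have hmem : g⁻¹ * z * g⁻¹⁻¹ ∈ normalizer ((P : Subgroup G) : Set G) := by
      rw [← Cfsg.Lib.Solv.conj_smul_eq_self_iff, inv_inv, map_mul, map_mul, mul_smul, mul_smul,
        map_inv, inv_smul_eq_iff]
      exact Cfsg.Lib.Solv.conj_smul_eq_self_iff.2 hzQ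
    obtain ⟨h, hh, e⟩ := Cfsg.Lib.ZStar.exists_conj_mem hz hzP hmem
    rw [inv_inv] at e
    have hc : g * h ∈ C := by
      refine mem_centralizer_singleton_iff.2 ?_
      calc g * h * z = g * (h * z * h⁻¹) * h := by group
        _ = z * (g * h) := by rw [e]; group
    have hle : R' ≤ MulAut.conj (g * h) • ((P : Subgroup G) ⊓ C) := by
      rw [Subgroup.smul_inf, map_mul, mul_smul, Cfsg.Lib.Solv.conj_smul_eq_self_iff.2 hh, ← map_mul,
        Cfsg.Lib.Solv.conj_smul_eq_self_iff.2 (le_normalizer hc)]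
      exact le_inf hRQ (map_subtype_le _)
    intro hd
    have h1 : Nat.card R' ≤ Nat.card ↥((P : Subgroup G) ⊓ C) := by
      rw [← Cfsg.Lib.Solv.card_conj_smul (g * h) ((P : Subgroup G) ⊓ C)]
      exact card_le_of_le hle
    have hRc : Nat.card R' * (R : Subgroup ↥C).index = Nat.card C := by
      rw [hR', Cfsg.Lib.Solv.card_map_subtype', card_mul_index]
    have hPc : Nat.card ↥((P : Subgroup G) ⊓ C) * ((P : Subgroup G) ⊓ C).relIndex C = Nat.card C := by
      rw [← Cfsg.Lib.Solv.card_subgroupOf (inf_le_right : (P : Subgroup G) ⊓ C ≤ C), relIndex,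
        card_mul_index]
    obtain ⟨n, hn⟩ := IsPGroup.iff_card.1 (P.isPGroup'.to_inf_left (K := C))
    obtain ⟨m, hm⟩ := IsPGroup.iff_card.1 (R.isPGroup'.map C.subtype)
    rw [← hR'] at hm
    rw [hn, hm] at h1
    have hmn : m ≤ n := (Nat.pow_le_pow_iff_right hp.out.one_lt).1 h1
    obtain ⟨c, hc'⟩ := hd
    rw [hn, hc'] at hPc
    rw [hm] at hRc
    refine R.not_dvd_index ⟨p ^ (n - m) * c, ?_⟩
    refine Nat.eq_of_mul_eq_mul_left (pow_pos hp.out.pos m) ?_
    rw [hRc, ← hPc, show p ^ n = p ^ m * p ^ (n - m) by rw [← pow_add]; congr 1; omega]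
    ring
  · rw [← card_oddInv hz hzP]
    refine Nat.card_congr (Equiv.subtypeEquivRight fun x => ⟨fun h => ⟨h.1, h.2.2⟩, fun h => ⟨h.1, ?_, h.2⟩⟩)
    obtain ⟨n, hn⟩ := IsPGroup.iff_card.1 P.isPGroup'
    exact Odd.of_dvd_nat ((hp.out.odd_of_ne_two hp2).pow) (hn ▸ orderOf_dvd_natCard (P : Subgroup G) h.1)

end Cfsg.Lib.Invol
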